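import Mathlib
import Cfsg.Prelude.Def_AxialAlgebras

/-!
Eigenvectors and fusion rules for Majorana axes.
-/

set_option autoImplicit false

namespace Cfsg.Agent.Maj

open Cfsg.Axial

variable {V : Type*} [AddCommGroup V] [Module ℝ V] {mul : V →ₗ[ℝ] V →ₗ[ℝ] V}
  {B : LinearMap.BilinForm ℝ V} {τ : V ≃ₗ[ℝ] V} {a : V}

theorem mem_eigen {c : ℝ} {v : V} : v ∈ eigen mul a c ↔ mul a v = c • v :=
  Module.End.mem_eigenspace_iff

theorem decomp0 (h : IsMajoranaPair mul B τ a) (v : V) : ∃ (c : ℝ) (x y z : V),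
    v = c • a + x + y + z ∧ mul a x = 0 ∧ mul a y = (1 / 4 : ℝ) • y ∧ mul a z = (1 / 32 : ℝ) • z ∧
      τ v = c • a + x + y - z := by
  obtain ⟨-, -, ⟨⟨-, h1, h2, -⟩, h3⟩, h4, h5⟩ := h
  have hv : v ∈ eigenSum mul a majoranaSpectrum := h2 ▸ Submodule.mem_top
  simp only [eigenSum, majoranaSpectrum, iSup_insert, iSup_singleton, Submodule.mem_sup] at hv h4
  obtain ⟨w, hw, _, ⟨x, hx, _, ⟨y, hy, z, hz, rfl⟩, rfl⟩, rfl⟩ := hv
  obtain ⟨c, rfl⟩ := Submodule.mem_span_singleton.1 (h3 ▸ hw)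
  refine ⟨c, x, y, z, by abel, by simpa using mem_eigen.1 hx, mem_eigen.1 hy, mem_eigen.1 hz, ?_⟩
  have e1 := h4 _ ⟨_, hw, _, ⟨x, hx, y, hy, rfl⟩, rfl⟩
  have e2 := h5 z hz
  simp only [LinearEquiv.coe_coe] at e1 e2
  rw [show c • a + (x + (y + z)) = c • a + (x + y) + z by abel, map_add, e1, e2]
  abel

theorem uniq {τ' : V ≃ₗ[ℝ] V} (h : IsMajoranaPair mul B τ a) (h' : IsMajoranaPair mul B τ' a) :
    τ = τ' := by
  ext v
  obtain ⟨c, x, y, z, rfl, h1, h2, h3, h4⟩ := decomp0 h v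
  obtain ⟨-, -, ⟨⟨-, h5, -⟩, -⟩, h6, h7⟩ := h'
  simp only [eigenSum, iSup_insert, iSup_singleton, Submodule.mem_sup] at h6
  have e1 := h6 _ ⟨c • a, mem_eigen.2 (by simp [h5]), _,
    ⟨x, mem_eigen.2 (by simpa using h1), y, mem_eigen.2 h2, rfl⟩, rfl⟩
  have e2 := h7 z (mem_eigen.2 h3)
  simp only [LinearEquiv.coe_coe] at e1 e2
  rw [h4, add_assoc (c • a), map_add, e1, e2, sub_eq_add_neg]

theorem invol (h : IsMajoranaPair mul B τ a) (v : V) : τ (τ v) = v := by
  obtain ⟨c, x, y, z, e, h1, h2, h3, h4⟩ := decomp0 h v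
  have h5 := h.2.2.2.2 z (mem_eigen.2 h3)
  simp only [LinearEquiv.coe_coe] at h5
  have : τ v = v - (2 : ℝ) • z := by rw [h4, e]; module
  rw [this, map_sub, map_smul, h5, this]
  module

theorem idem (h : IsMajoranaPair mul B τ a) : mul a a = a := h.2.2.1.1.2.1

theorem fz (h : IsMajoranaPair mul B τ a) {x y : V} (hx : mul a x = 0) (hy : mul a y = 0) :
    mul a (mul x y) = 0 := by
  have := h.2.2.1.1.2.2.2 0 (by simp [majoranaSpectrum]) 0 (by simp [majoranaSpectrum]) x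
    (mem_eigen.2 (by simpa)) y (mem_eigen.2 (by simpa))
  rw [show monsterLaw (1 / 4 : ℝ) (1 / 32) 0 0 = {0} by norm_num [monsterLaw]] at this
  simpa [eigenSum, mem_eigen] using this

theorem fq (h : IsMajoranaPair mul B τ a) {x y : V} (hx : mul a x = 0)
    (hy : mul a y = (1 / 4 : ℝ) • y) : mul a (mul x y) = (1 / 4 : ℝ) • mul x y := by
  have := h.2.2.1.1.2.2.2 0 (by simp [majoranaSpectrum]) (1 / 4) (by simp [majoranaSpectrum]) x
    (mem_eigen.2 (by simpa)) y (mem_eigen.2 hy)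
  rw [show monsterLaw (1 / 4 : ℝ) (1 / 32) 0 (1 / 4) = {1 / 4} by norm_num [monsterLaw]] at this
  simpa only [eigenSum, iSup_singleton, mem_eigen] using this

variable (hV : IsMajoranaAmbient mul B) (h : IsMajoranaPair mul B τ a) (hn : B a a = 1)
include hV h

theorem orth {c : ℝ} (hc : c ≠ 1) {x : V} (hx : mul a x = c • x) : B a x = 0 := by
  have := hV.2.2.2.1 a a x
  rw [idem h, hx, map_smul, smul_eq_mul] at this
  exact mul_left_cancel₀ (sub_ne_zero.2 hc) (by linear_combination this)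

include hn

theorem fqq {x y : V} (hx : mul a x = (1 / 4 : ℝ) • x) (hy : mul a y = (1 / 4 : ℝ) • y) :
    mul a (mul x y) = ((1 / 4 : ℝ) * B x y) • a := by
  have := h.2.2.1.1.2.2.2 (1 / 4) (by simp [majoranaSpectrum]) (1 / 4) (by simp [majoranaSpectrum])
    x (mem_eigen.2 hx) y (mem_eigen.2 hy)
  rw [show monsterLaw (1 / 4 : ℝ) (1 / 32) (1 / 4) (1 / 4) = {1, 0} by norm_num [monsterLaw]] at this
  simp only [eigenSum, iSup_insert, iSup_singleton, Submodule.mem_sup, h.2.2.1.2,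
    Submodule.mem_span_singleton, mem_eigen] at this
  obtain ⟨_, ⟨c, rfl⟩, z, hz, e⟩ := this
  have e1 := hV.2.2.2.1 a x y
  rw [← e, map_add, orth hV h zero_ne_one hz, hx] at e1
  simp only [map_smul, hn, LinearMap.smul_apply, smul_eq_mul, mul_one, add_zero] at e1
  rw [← e, map_add, hz, map_smul, idem h, e1, zero_smul, add_zero]

theorem decomp (v : V) : ∃ x y z : V,
    v = B a v • a + x + y + z ∧ mul a x = 0 ∧ mul a y = (1 / 4 : ℝ) • y ∧
      mul a z = (1 / 32 : ℝ) • z ∧ τ v = B a v • a + x + y - z := by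
  obtain ⟨c, x, y, z, e, h1, h2, h3, h4⟩ := decomp0 h v
  have : B a v = c := by
    rw [e]
    simp [hn, orth hV h zero_ne_one (h1.trans (zero_smul _ _).symm),
      orth hV h (by norm_num) h2, orth hV h (by norm_num) h3]
  exact ⟨x, y, z, this ▸ e, h1, h2, h3, this ▸ h4⟩

theorem eig {v w s : V} {l : ℝ} (hw : τ v = w) (hl : B a v = l)
    (hs : mul a v = s + (1 / 32 : ℝ) • (a + v)) :
    mul a w = s + (1 / 32 : ℝ) • (a + w) ∧
    mul a ((-4 : ℝ) • s + (3 * l - 1 / 8) • a + (7 / 16 : ℝ) • (v + w)) = 0 ∧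
    mul a ((4 : ℝ) • s + (1 / 8 - 4 * l) • a + (1 / 16 : ℝ) • (v + w)) =
      (1 / 4 : ℝ) • ((4 : ℝ) • s + (1 / 8 - 4 * l) • a + (1 / 16 : ℝ) • (v + w)) ∧
    mul a s = (7 / 32 : ℝ) • s + (3 / 4 * l - 25 / 1024) • a + (7 / 2048 : ℝ) • (v + w) := by
  obtain ⟨x, y, z, e, h1, h2, h3, h4⟩ := decomp hV h hn v
  rw [hl] at e h4
  subst hw
  have e1 : s = (l - 1 / 32 - l / 32) • a + (1 / 4 - 1 / 32 : ℝ) • y - (1 / 32 : ℝ) • x := by
    rw [e] at hs
    simp only [map_add, map_smul, idem h, h1, h2, h3] at hs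
    linear_combination (norm := module) -hs
  rw [h4, e1, e]
  simp only [map_add, map_sub, map_smul, idem h, h1, h2, h3]
  refine ⟨?_, ?_, ?_, ?_⟩ <;> module

theorem nonneg {v : V} (hv : mul v v = v) : 0 ≤ B a v ∧ (B a v = 0 → mul a v = 0) := by
  obtain ⟨x, y, z, e, h1, h2, h3, -⟩ := decomp hV h hn v
  have p : ∀ u, 0 ≤ B u u := fun u => by
    by_cases h : u = 0
    · simp [h]
    · exact (hV.2.2.1 u h).le
  have o : ∀ {c d : ℝ} {u w : V}, c ≠ d → mul a u = c • u → mul a w = d • w → B u w = 0 :=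
    fun {c d u w} hcd hu hw => by
      have := hV.2.2.2.1 u a w
      rw [hV.1 u a, hu, hw] at this
      simp only [map_smul, LinearMap.smul_apply, smul_eq_mul] at this
      exact mul_left_cancel₀ (sub_ne_zero.2 hcd) (by linear_combination -this)
  have h0 := h1.trans (zero_smul ℝ x).symm
  have h5 := (idem h).trans (one_smul ℝ a).symm
  have e1 : mul a v = B a v • a + (1 / 4 : ℝ) • y + (1 / 32 : ℝ) • z := by
    conv_lhs => rw [e]
    simp [idem h, h1, h2, h3]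
  have e2 := hV.2.2.2.1 a v v
  rw [hv, e1] at e2
  generalize B a v = l at *
  rw [e] at e2
  simp only [map_add, map_smul, LinearMap.add_apply, LinearMap.smul_apply, smul_eq_mul, hn,
    o (by norm_num) h5 h0, o (by norm_num) h5 h2, o (by norm_num) h5 h3, o (by norm_num) h2 h5,
    o (by norm_num) h2 h0, o (by norm_num) h2 h3, o (by norm_num) h3 h5, o (by norm_num) h3 h0,
    o (by norm_num) h3 h2] at e2
  have p1 := p y
  have p2 := p z
  refine ⟨by nlinarith [mul_self_nonneg l], fun hl => ?_⟩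
  have hy : y = 0 := by_contra fun h => by have := hV.2.2.1 y h; subst hl; linarith
  have hz : z = 0 := by_contra fun h => by have := hV.2.2.1 z h; subst hl; linarith
  simp [e1, hl, hy, hz]

end Cfsg.Agent.Maj
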