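import Mathlib
import Cfsg.Agent.Maj.Basic

/-!
The resurrection principle for two Majorana axes.
-/

set_option autoImplicit false

namespace Cfsg.Agent.Maj

open Cfsg.Axial

variable {V : Type*} [AddCommGroup V] [Module ℝ V] {mul : V →ₗ[ℝ] V →ₗ[ℝ] V}
  {B : LinearMap.BilinForm ℝ V} {τ : V ≃ₗ[ℝ] V}

theorem form_s (hV : IsMajoranaAmbient mul B) {x y s : V} {l : ℝ} (h1 : mul x x = x)
    (h2 : B x x = 1) (h3 : B x y = l) (h4 : mul x y = s + (1 / 32 : ℝ) • (x + y)) :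
    B x s = l - 1 / 32 * (1 + l) := by
  have := hV.2.2.2.1 x x y
  rw [h1, h4] at this
  simp only [map_add, map_smul, h2, h3, smul_eq_mul] at this
  linear_combination this

theorem res (hV : IsMajoranaAmbient mul B) {x0 x1 y1 x2 y2 s t0 t1 : V} {l n : ℝ}
    (h : IsMajoranaPair mul B τ x0) (hn : B x0 x0 = 1) (hw : τ x1 = y1) (hl : B x0 x1 = l)
    (p1 : mul x0 x1 = s + (1 / 32 : ℝ) • (x0 + x1)) (p2 : mul x1 x1 = x1) (p3 : mul y1 y1 = y1)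
    (p4 : mul x1 y1 = t1 + (1 / 32 : ℝ) • (x1 + y1))
    (p5 : mul x1 s = (7 / 32 : ℝ) • s + (3 / 4 * l - 25 / 1024) • x1 + (7 / 2048 : ℝ) • (x0 + x2))
    (p6 : mul y1 s = (7 / 32 : ℝ) • s + (3 / 4 * l - 25 / 1024) • y1 + (7 / 2048 : ℝ) • (x0 + y2))
    (p7 : mul x0 x2 = t0 + (1 / 32 : ℝ) • (x0 + x2)) (p8 : mul x0 y2 = t0 + (1 / 32 : ℝ) • (x0 + y2))
    (b1 : B x1 x1 = 1) (b2 : B y1 y1 = 1) (b3 : B x1 y1 = n) (b4 : B x0 y1 = l) :
    mul x0 t1 = (1 / 6 * l - 19 / 3072) • (x1 + y1) + (7 / 6144 : ℝ) • (x2 + y2) +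
      (-32 / 3 * l ^ 2 + 5 / 3 * l - 1 / 24 * n - 127 / 3072) • x0 + (32 / 3 * l - 19 / 48) • s +
      (7 / 96 : ℝ) • t0 ∧
    mul s s = (49 / 768 * l - 245 / 196608) • (x1 + y1) + (49 / 196608 : ℝ) • (x2 + y2) +
      (7 / 6 * l ^ 2 - 7 / 384 * l + 7 / 1536 * n - 7 / 98304) • x0 +
      (-5 / 12 * l - 13 / 1536) • s - (7 / 1536 : ℝ) • t0 + (7 / 2048 : ℝ) • t1 := by
  obtain ⟨p9, e1, e2, p10⟩ := eig hV h hn hw hl p1
  have p0 := idem h
  have c := hV.1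
  have d := hV.2.1
  have b5 := form_s hV p0 hn hl p1
  have b6 := form_s hV p2 b1 ((d _ _).trans hl) ((c _ _).trans (p1.trans (by rw [add_comm x0])))
  have b7 := form_s hV p3 b2 ((d _ _).trans b4) ((c _ _).trans (p9.trans (by rw [add_comm x0])))
  have b8 : B s s = 3 / 4 * l ^ 2 + 65 / 512 * l + 7 / 2048 * n - 3 / 2048 := by
    have := hV.2.2.2.1 s x0 x1
    rw [c s, p1, p10] at this
    simp only [map_add, map_smul, LinearMap.add_apply, LinearMap.smul_apply, smul_eq_mul, d s x0,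
      d s x1, d y1 x1, b1, b3, b5, b6, hl] at this
    linear_combination this
  have f1 := fz h e1 e1
  have f2 := fqq hV h hn e2 e2
  have f3 := fq h e1 e2
  have g1 : mul ((-4 : ℝ) • s + (3 * l - 1 / 8) • x0 + (7 / 16 : ℝ) • (x1 + y1))
      ((-4 : ℝ) • s + (3 * l - 1 / 8) • x0 + (7 / 16 : ℝ) • (x1 + y1)) =
      mul ((4 : ℝ) • s + (1 / 8 - 4 * l) • x0 + (1 / 16 : ℝ) • (x1 + y1))
      ((4 : ℝ) • s + (1 / 8 - 4 * l) • x0 + (1 / 16 : ℝ) • (x1 + y1)) +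
      ((-23 / 8 * l + 75 / 256) • (x1 + y1) - (7 / 512 : ℝ) • (x2 + y2) +
        (-l ^ 2 + 1 / 4 * l - 9 / 256) • x0 + (8 * l - 2) • s + (3 / 8 : ℝ) • t1) := by
    simp only [map_add, map_smul, LinearMap.add_apply, LinearMap.smul_apply, c s x0, c s x1, c s y1,
      c x1 x0, c y1 x0, c y1 x1, p0, p1, p2, p3, p4, p5, p6, p9, p10]
    module
  have q1 : mul x0 t1 = (1 / 6 * l - 19 / 3072) • (x1 + y1) + (7 / 6144 : ℝ) • (x2 + y2) +
      (-32 / 3 * l ^ 2 + 5 / 3 * l - 1 / 24 * n - 127 / 3072) • x0 + (32 / 3 * l - 19 / 48) • s +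
      (7 / 96 : ℝ) • t0 := by
    rw [g1, map_add, f2] at f1
    simp only [map_add, map_sub, map_smul, LinearMap.add_apply, LinearMap.smul_apply, smul_eq_mul,
      d s x0, d s x1, d s y1, d x1 x0, d y1 x0, d y1 x1, hn, hl, b1, b2, b3, b4, b5, b6, b7, b8,
      p0, p1, p7, p8, p9, p10] at f1
    linear_combination (norm := module) (8 / 3 : ℝ) • f1
  refine ⟨q1, ?_⟩
  have g2 : mul ((-4 : ℝ) • s + (3 * l - 1 / 8) • x0 + (7 / 16 : ℝ) • (x1 + y1))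
      ((-4 : ℝ) • s + (3 * l - 1 / 8) • x0 + (7 / 16 : ℝ) • (x1 + y1)) +
      mul ((-4 : ℝ) • s + (3 * l - 1 / 8) • x0 + (7 / 16 : ℝ) • (x1 + y1))
      ((4 : ℝ) • s + (1 / 8 - 4 * l) • x0 + (1 / 16 : ℝ) • (x1 + y1)) =
      mul ((-4 : ℝ) • s + (3 * l - 1 / 8) • x0 + (7 / 16 : ℝ) • (x1 + y1))
        ((1 / 2 : ℝ) • (x1 + y1)) := by
    rw [← map_add, show (1 / 2 : ℝ) • (x1 + y1) = _ + _ + l • x0 from ?_, map_add _ _ (l • x0),
      map_smul, c _ x0, e1, smul_zero, add_zero]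
    module
  have g3 := congrArg (mul x0) g2
  rw [map_add, f1, f3] at g3
  simp only [map_add, map_smul, LinearMap.add_apply, LinearMap.smul_apply, c s x0, c s x1, c s y1,
    c x1 x0, c y1 x0, c y1 x1, p0, p1, p2, p3, p4, p5, p6, p7, p8, p9, p10, q1] at g3
  linear_combination (norm := module) (-1 / 4 : ℝ) • g3

end Cfsg.Agent.Maj
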