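import Mathlib
import Cfsg.Agent.Maj.Res

/-!
Sakuma's theorem for Majorana involutions.
-/

set_option autoImplicit false

namespace Cfsg.Agent.Maj

open Cfsg.Axial

variable {V : Type*} [AddCommGroup V] [Module ℝ V] {mul : V →ₗ[ℝ] V →ₗ[ℝ] V}
  {B : LinearMap.BilinForm ℝ V}

variable (mul B) in
/-- a dihedral sequence of axes -/
def Sq (a : ℤ → V) : Prop := ∀ i, ∃ τ, IsMajoranaPair mul B τ (a i) ∧ B (a i) (a i) = 1 ∧
  ∀ j, τ (a j) = a (2 * i - j)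

variable (mul B) in
/-- the multiplication table of a dihedral sequence -/
structure Tab (a : ℤ → V) (s t0 t1 : V) (l m n : ℝ) : Prop where
  sq : Sq mul B a
  p1 : ∀ i j, j = i + 1 → mul (a i) (a j) = s + (1 / 32 : ℝ) • (a i + a j)
  p2 : ∀ i j, j = i + 2 → Even i → mul (a i) (a j) = t0 + (1 / 32 : ℝ) • (a i + a j)
  p3 : ∀ i j, j = i + 2 → ¬ Even i → mul (a i) (a j) = t1 + (1 / 32 : ℝ) • (a i + a j)
  b1 : ∀ i j, j = i + 1 → B (a i) (a j) = l
  b2 : ∀ i j, j = i + 2 → Even i → B (a i) (a j) = m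
  b3 : ∀ i j, j = i + 2 → ¬ Even i → B (a i) (a j) = n

variable {a : ℤ → V} {s t0 t1 : V} {l m n : ℝ}

theorem Sq.refl (h : Sq mul B a) (k i j : ℤ) : B (a (2 * k - i)) (a (2 * k - j)) = B (a i) (a j) := by
  obtain ⟨τ, h1, -, h2⟩ := h k
  rw [← h2, ← h2, h1.2.1]

theorem Sq.idem (h : Sq mul B a) (i : ℤ) : mul (a i) (a i) = a i := by
  obtain ⟨τ, h1, -⟩ := h i
  exact Maj.idem h1

theorem Sq.one (h : Sq mul B a) (i : ℤ) : B (a i) (a i) = 1 := by
  obtain ⟨τ, -, h1, -⟩ := h i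
  exact h1

theorem Tab.shift (h : Tab mul B a s t0 t1 l m n) : Tab mul B (fun i => a (i + 1)) s t1 t0 l n m where
  sq i := by
    obtain ⟨τ, h1, h2, h3⟩ := h.sq (i + 1)
    exact ⟨τ, h1, h2, fun j => (h3 _).trans (congrArg a (by ring))⟩
  p1 i j e := h.p1 _ _ (by omega)
  p2 i j e he := h.p3 _ _ (by omega) (by grind)
  p3 i j e he := h.p2 _ _ (by omega) (by grind)
  b1 i j e := h.b1 _ _ (by omega)
  b2 i j e he := h.b3 _ _ (by omega) (by grind)
  b3 i j e he := h.b2 _ _ (by omega) (by grind)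

variable (hV : IsMajoranaAmbient mul B)
include hV

theorem Tab.flip (h : Tab mul B a s t0 t1 l m n) : Tab mul B (fun i => a (1 - i)) s t1 t0 l n m where
  sq i := by
    obtain ⟨τ, h1, h2, h3⟩ := h.sq (1 - i)
    exact ⟨τ, h1, h2, fun j => (h3 _).trans (congrArg a (by ring))⟩
  p1 i j e := by rw [hV.1, add_comm (a _)]; exact h.p1 _ _ (by omega)
  p2 i j e he := by rw [hV.1, add_comm (a _)]; exact h.p3 _ _ (by omega) (by grind)
  p3 i j e he := by rw [hV.1, add_comm (a _)]; exact h.p2 _ _ (by omega) (by grind)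
  b1 i j e := by rw [hV.2.1]; exact h.b1 _ _ (by omega)
  b2 i j e he := by rw [hV.2.1]; exact h.b3 _ _ (by omega) (by grind)
  b3 i j e he := by rw [hV.2.1]; exact h.b2 _ _ (by omega) (by grind)

theorem Sq.tab (h : Sq mul B a) : ∃ s t0 t1 l m n, Tab mul B a s t0 t1 l m n := by
  have key : ∀ d : ℤ, Function.Periodic (fun i => (mul (a i) (a (i + d)) -
      (1 / 32 : ℝ) • (a i + a (i + d)), B (a i) (a (i + d)))) d := fun d i => by
    obtain ⟨τ, h1, h2, h3⟩ := h (i + d)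
    have := (eig hV h1 h2 (h3 i) rfl (sub_add_cancel _ _).symm).1
    have e := h.refl (i + d) i (i + d)
    rw [show 2 * (i + d) - i = i + d + d by ring] at this e
    rw [show 2 * (i + d) - (i + d) = i + d by ring, hV.2.1] at e
    simp only [this, e, hV.1 (a i), add_comm (a i), add_sub_cancel_right]
  have k1 : ∀ i, _ = _ := fun i => (key 1).int_mul i 0
  have k2 : ∀ i, _ = _ := fun i => (key 2).int_mul i 0
  have k3 : ∀ i, _ = _ := fun i => (key 2).int_mul i 1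
  simp only [Prod.mk.injEq, Int.cast_id, zero_add, mul_one, sub_eq_iff_eq_add] at k1 k2 k3
  refine ⟨_, mul (a 0) (a 2) - (1 / 32 : ℝ) • (a 0 + a 2),
    mul (a 1) (a (1 + 2)) - (1 / 32 : ℝ) • (a 1 + a (1 + 2)), _, B (a 0) (a 2), B (a 1) (a (1 + 2)),
    h, fun i j e => e ▸ (k1 i).1, ?_, ?_, fun i j e => e ▸ (k1 i).2, ?_, ?_⟩
  all_goals rintro i _ rfl he
  · obtain ⟨k, rfl⟩ := he
    rw [show k + k = k * 2 by ring]; exact (k2 k).1
  · obtain ⟨k, rfl⟩ := Int.not_even_iff_odd.1 he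
    rw [show 2 * k + 1 = 1 + k * 2 by ring]; exact (k3 k).1
  · obtain ⟨k, rfl⟩ := he
    rw [show k + k = k * 2 by ring]; exact (k2 k).2
  · obtain ⟨k, rfl⟩ := Int.not_even_iff_odd.1 he
    rw [show 2 * k + 1 = 1 + k * 2 by ring]; exact (k3 k).2

variable (h : Tab mul B a s t0 t1 l m n)
include h

theorem Tab.ms (i j k : ℤ) (e : j = i + 1) (e' : k = i - 1) : mul (a i) s =
    (7 / 32 : ℝ) • s + (3 / 4 * l - 25 / 1024) • a i + (7 / 2048 : ℝ) • (a j + a k) := by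
  obtain ⟨τ, h1, h2, h3⟩ := h.sq i
  exact (eig hV h1 h2 ((h3 j).trans (congrArg a (by omega))) (h.b1 i j e) (h.p1 i j e)).2.2.2

theorem Tab.mt : mul (a 0) t0 =
    (7 / 32 : ℝ) • t0 + (3 / 4 * m - 25 / 1024) • a 0 + (7 / 2048 : ℝ) • (a 2 + a (-2)) := by
  obtain ⟨τ, h1, h2, h3⟩ := h.sq 0
  exact (eig hV h1 h2 (h3 2) (h.b2 0 2 rfl (by decide)) (h.p2 0 2 rfl (by decide))).2.2.2

theorem Tab.bs (i : ℤ) : B (a i) s = l - 1 / 32 * (1 + l) :=
  form_s hV (h.sq.idem i) (h.sq.one i) (h.b1 i _ rfl) (h.p1 i _ rfl)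

theorem Tab.bt0 {i : ℤ} (he : Even i) : B (a i) t0 = m - 1 / 32 * (1 + m) :=
  form_s hV (h.sq.idem i) (h.sq.one i) (h.b2 i _ rfl he) (h.p2 i _ rfl he)

theorem Tab.bt1 {i : ℤ} (he : Even i) : B (a i) t1 = 15 / 16 * l + 1 / 32 * n - 1 / 32 := by
  have := hV.2.2.2.1 (a i) (a (i - 1)) (a (i + 1))
  rw [h.p3 _ _ (by omega) (by grind), hV.1, h.p1 _ _ (by omega)] at this
  simp only [map_add, map_smul, LinearMap.add_apply, LinearMap.smul_apply, smul_eq_mul,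
    hV.2.1 s, h.bs hV, h.b1 i (i + 1) rfl, hV.2.1 (a i) (a (i - 1)), h.b1 (i - 1) i (by omega),
    h.b3 (i - 1) (i + 1) (by omega) (by grind)] at this
  linear_combination this

theorem Tab.res : mul (a 0) t1 = (1 / 6 * l - 19 / 3072) • (a 1 + a (-1)) +
      (7 / 6144 : ℝ) • (a 2 + a (-2)) +
      (-32 / 3 * l ^ 2 + 5 / 3 * l - 1 / 24 * n - 127 / 3072) • a 0 + (32 / 3 * l - 19 / 48) • s +
      (7 / 96 : ℝ) • t0 ∧
    mul s s = (49 / 768 * l - 245 / 196608) • (a 1 + a (-1)) + (49 / 196608 : ℝ) • (a 2 + a (-2)) +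
      (7 / 6 * l ^ 2 - 7 / 384 * l + 7 / 1536 * n - 7 / 98304) • a 0 +
      (-5 / 12 * l - 13 / 1536) • s - (7 / 1536 : ℝ) • t0 + (7 / 2048 : ℝ) • t1 := by
  obtain ⟨τ, h1, h2, h3⟩ := h.sq 0
  refine Maj.res hV h1 h2 (h3 1) (h.b1 _ _ rfl) (h.p1 _ _ rfl) (h.sq.idem _) (h.sq.idem _) ?_ ?_
    (h.ms hV _ _ _ rfl rfl) (h.p2 _ _ rfl (by decide)) ?_ (h.sq.one _) (h.sq.one _) ?_ ?_
  · rw [hV.1, add_comm (a _)]; exact h.p3 _ _ rfl (by decide)
  · rw [add_comm (a _)]; exact h.ms hV _ _ _ rfl rfl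
  · rw [hV.1, add_comm (a _)]; exact h.p2 _ _ rfl (by decide)
  · rw [hV.2.1]; exact h.b3 _ _ rfl (by decide)
  · rw [hV.2.1]; exact h.b1 _ _ rfl

theorem Tab.rel : a 3 = a (-2) + (256 * l - 6) • (a (-1) - a 2) +
    (32768 / 7 * l ^ 2 - 2304 / 7 * l + 33 / 7) • (a 0 - a 1) +
    (128 / 7 * n) • a 0 - (128 / 7 * m) • a 1 + (32 : ℝ) • (t1 - t0) := by
  have e1 := (h.res hV).2
  have e2 := ((h.flip hV).res hV).2
  norm_num only at e2
  linear_combination (norm := module) (196608 / 49 : ℝ) • (e1 - e2)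

theorem Tab.l3 : B (a 0) (a 3) = -32768 / 7 * l ^ 3 + 36864 / 7 * l ^ 2 - 1920 / 7 * l * m -
    2169 / 7 * l - 24 * m + 135 / 7 * n + 33 / 7 := by
  rw [h.rel hV]
  simp only [map_add, map_sub, map_smul, smul_eq_mul, h.sq.one, h.bt0 hV (i := 0) (by decide),
    h.bt1 hV (i := 0) (by decide), hV.2.1 (a 0) (a (-1)), hV.2.1 (a 0) (a (-2)), h.b1 0 1 rfl,
    h.b1 (-1) 0 rfl, h.b2 0 2 rfl (by decide), h.b2 (-2) 0 rfl (by decide)]
  ring

theorem Tab.b13 : B (a 1) (a (-2)) = B (a 0) (a 3) := by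
  have a1 := h.sq.refl 2 1 4
  have a2 := h.sq.refl 1 1 4
  norm_num only at a1 a2
  rw [a2, ← a1, hV.2.1]

theorem Tab.st : B s t0 = (7 / 32 - 1 / 32) * (15 / 16 * l + 1 / 32 * m - 1 / 32) +
    (3 / 4 * m - 25 / 1024) * l + 7 / 2048 * (l + B (a 0) (a 3)) -
    1 / 32 * (m - 1 / 32 * (1 + m)) := by
  have := hV.2.2.2.1 (a 1) (a 0) t0
  have e := (h.shift.bt1 hV (i := 0) (by decide))
  rw [h.mt hV, hV.1, h.p1 0 1 rfl] at this
  have e3 := h.b13 hV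
  norm_num only at e
  simp only [map_add, map_smul, LinearMap.add_apply, LinearMap.smul_apply, smul_eq_mul, e, e3,
    h.bt0 hV (i := 0) (by decide), hV.2.1 (a 1) (a 0), h.b1 0 1 rfl, h.b1 1 2 rfl] at this
  linear_combination -this

theorem Tab.mn : m = n := by
  have e1 := h.l3 hV
  have e2 := (h.flip hV).l3 hV
  have e3 := h.st hV
  have e4 := (h.flip hV).st hV
  have e5 := congrArg (B s) (h.rel hV)
  norm_num only at e2 e4
  rw [h.b13 hV] at e2 e4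
  simp only [map_add, map_sub, map_smul, smul_eq_mul, hV.2.1 s (a _), h.bs hV, e3, e4] at e5
  linear_combination 511 / 26664 * (e1 - e2) - 3360 / 26664 * e5

end Cfsg.Agent.Maj
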