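import Mathlib
import Cfsg.Agent.Maj.Sak

/-!
Sakuma's theorem for Majorana involutions: the polynomial conditions.
-/

set_option autoImplicit false

namespace Cfsg.Agent.Maj

open Cfsg.Axial

/-- coefficient -/
noncomputable def cY (l m : ℝ) : ℝ :=
  256 * l - 6 + (32768 / 7 * l ^ 2 - 2304 / 7 * l + 33 / 7 + 128 / 7 * m)

/-- third inner product -/
noncomputable def f3 (l m : ℝ) : ℝ :=
  -32768 / 7 * l ^ 3 + 36864 / 7 * l ^ 2 - 1920 / 7 * l * m - 2169 / 7 * l - 33 / 7 * m + 33 / 7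

/-- fourth inner product -/
noncomputable def f4 (l m : ℝ) : ℝ := m - (256 * l - 5) * (f3 l m - l) - cY l m * (m - 1)

/-- fifth inner product -/
noncomputable def f5 (l m : ℝ) : ℝ := l - (256 * l - 5) * (f4 l m - 1) - cY l m * (f3 l m - l)

/-- sixth inner product -/
noncomputable def f6 (l m : ℝ) : ℝ := 1 - (256 * l - 5) * (f5 l m - l) - cY l m * (f4 l m - m)

theorem solve {l m : ℝ} (h1 : 128 * m ^ 2 + (40960 * l ^ 2 + 8896 * l - 167) * m +
      (2097152 * l ^ 4 - 2326528 * l ^ 3 + 184320 * l ^ 2 - 4800 * l + 39) = 0)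
    (h2 : (1048576 * l ^ 3 + 2408448 * l ^ 2 - 25408 * l - 195) * m + (268435456 * l ^ 5 -
      283115520 * l ^ 4 + 10911744 * l ^ 3 + 356352 * l ^ 2 - 19648 * l + 195) = 0) :
    f4 l m = 1 ∨ f5 l m = 1 ∨ f6 l m = 1 := by
  have h3 : l * (l - 1) * (l - 1 / 8) * (l - 1 / 64) ^ 2 * (l - 13 / 256) * (l - 1 / 32) *
      (l - 3 / 128) * (l - 5 / 256) = 0 := by
    linear_combination (-1 / 28246576862867750912) *
      ((1048576 * l ^ 3 + 2408448 * l ^ 2 - 25408 * l - 195) ^ 2 * h1 -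
      (128 * ((1048576 * l ^ 3 + 2408448 * l ^ 2 - 25408 * l - 195) * m - (268435456 * l ^ 5 -
      283115520 * l ^ 4 + 10911744 * l ^ 3 + 356352 * l ^ 2 - 19648 * l + 195)) +
      (40960 * l ^ 2 + 8896 * l - 167) * (1048576 * l ^ 3 + 2408448 * l ^ 2 - 25408 * l - 195)) * h2)
  simp only [mul_eq_zero, sub_eq_zero, pow_eq_zero_iff two_ne_zero] at h3
  rcases h3 with ((((((rfl | rfl) | rfl) | rfl) | rfl) | rfl) | rfl) | rfl
  · obtain rfl : m = 1 := by linarith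
    norm_num [f3, f4, cY]
  · obtain rfl : m = 1 := by linarith
    norm_num [f3, f4, cY]
  · obtain rfl : m = 1 := by linarith
    norm_num [f3, f4, cY]
  · have : (m - 1 / 64) * (m - 1 / 8) = 0 := by linear_combination (1 / 128) * h1
    rcases mul_eq_zero.1 this with h | h <;> rw [sub_eq_zero.1 h] <;> norm_num [f3, f4, f5, f6, cY]
  · obtain rfl : m = 13 / 256 := by linarith
    norm_num [f3, f4, f5, f6, cY]
  · obtain rfl : m = 0 := by linarith
    norm_num [f3, f4, cY]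
  · obtain rfl : m = 3 / 128 := by linarith
    norm_num [f3, f4, f5, cY]
  · obtain rfl : m = 13 / 256 := by linarith
    norm_num [f3, f4, f5, f6, cY]

variable {V : Type*} [AddCommGroup V] [Module ℝ V] {mul : V →ₗ[ℝ] V →ₗ[ℝ] V}
  {B : LinearMap.BilinForm ℝ V} {a : ℤ → V} {s t0 t1 : V} {l m : ℝ}
  (hV : IsMajoranaAmbient mul B) (h : Tab mul B a s t0 t1 l m m)
include h

theorem Tab.b2' (i j : ℤ) (e : j = i + 2) : B (a i) (a j) = m :=
  (em (Even i)).elim (h.b2 i j e) (h.b3 i j e)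

theorem Tab.sh (k : ℤ) : ∃ t0 t1, Tab mul B (fun i => a (i + k)) s t0 t1 l m m := by
  have sq : Sq mul B fun i => a (i + k) := fun i => by
    obtain ⟨τ, h1, h2, h3⟩ := h.sq (i + k)
    exact ⟨τ, h1, h2, fun j => (h3 _).trans (congrArg a (by ring))⟩
  by_cases hk : Even k
  · exact ⟨t0, t1, sq, fun i j e => h.p1 _ _ (by omega), fun i j e he => h.p2 _ _ (by omega) (by grind),
      fun i j e he => h.p3 _ _ (by omega) (by grind), fun i j e => h.b1 _ _ (by omega),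
      fun i j e _ => h.b2' _ _ (by omega), fun i j e _ => h.b2' _ _ (by omega)⟩
  · exact ⟨t1, t0, sq, fun i j e => h.p1 _ _ (by omega), fun i j e he => h.p3 _ _ (by omega) (by grind),
      fun i j e he => h.p2 _ _ (by omega) (by grind), fun i j e => h.b1 _ _ (by omega),
      fun i j e _ => h.b2' _ _ (by omega), fun i j e _ => h.b2' _ _ (by omega)⟩

include hV

theorem Tab.b3' (i j : ℤ) (e : j = i + 3) : B (a i) (a j) = f3 l m := by
  obtain ⟨_, _, h⟩ := h.sh i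
  have := h.l3 hV
  rw [zero_add, add_comm, ← e] at this
  rw [this, f3]; ring

theorem Tab.r4 : a 4 = a (-2) - (256 * l - 5) • (a 3 - a (-1)) - cY l m • (a 2 - a 0) := by
  have e1 := h.rel hV
  have e2 := h.shift.rel hV
  norm_num only at e2
  rw [cY]
  linear_combination (norm := module) e1 + e2

theorem Tab.b4' (i j : ℤ) (e : j = i + 4) : B (a i) (a j) = f4 l m := by
  obtain ⟨_, _, h⟩ := h.sh i
  have := congrArg (B (a (0 + i))) (h.r4 hV)
  simp only [map_sub, map_smul, smul_eq_mul, h.b3' hV 0 3 rfl, h.b2' 0 2 rfl, h.sq.one 0,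
    (hV.2.1 _ _).trans (h.b2' (-2) 0 rfl), (hV.2.1 _ _).trans (h.b1 (-1) 0 rfl)] at this
  rwa [zero_add, add_comm, ← e] at this

theorem Tab.b5' (i j : ℤ) (e : j = i + 5) : B (a i) (a j) = f5 l m := by
  obtain ⟨_, _, h⟩ := h.sh (i + 1)
  have := congrArg (B (a (-1 + (i + 1)))) (h.r4 hV)
  simp only [map_sub, map_smul, smul_eq_mul, h.b4' hV (-1) 3 rfl, h.b3' hV (-1) 2 rfl,
    h.sq.one (-1), (hV.2.1 _ _).trans (h.b1 (-2) (-1) rfl), h.b1 (-1) 0 rfl] at this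
  rwa [show -1 + (i + 1) = i by ring, show 4 + (i + 1) = j by omega] at this

theorem Tab.b6' : B (a (-2)) (a 4) = f6 l m := by
  have := congrArg (B (a (-2))) (h.r4 hV)
  simpa only [map_sub, map_smul, smul_eq_mul, h.b5' hV (-2) 3 rfl, h.b4' hV (-2) 2 rfl,
    h.sq.one (-2), h.b1 (-2) (-1) rfl, h.b2' (-2) 0 rfl, f6] using this

theorem Tab.bo {i : ℤ} (he : ¬ Even i) : B (a i) t0 = 15 / 16 * l + 1 / 32 * m - 1 / 32 ∧
    B (a i) t1 = m - 1 / 32 * (1 + m) := by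
  have e1 := h.shift.bt1 hV (i := i - 1) (by grind)
  have e2 := h.shift.bt0 hV (i := i - 1) (by grind)
  rw [sub_add_cancel] at e1 e2
  exact ⟨e1, e2⟩

theorem Tab.p1' : 128 * m ^ 2 + (40960 * l ^ 2 + 8896 * l - 167) * m +
    (2097152 * l ^ 4 - 2326528 * l ^ 3 + 184320 * l ^ 2 - 4800 * l + 39) = 0 := by
  have d := hV.2.1
  have e1 := hV.2.2.2.1 (a 2) (a 0) t0
  have e2 := hV.2.2.2.1 (a 2) (a 0) t1
  have e3 := congrArg (B · t0) (h.rel hV)
  rw [hV.1 (a 2), h.p2 0 2 rfl (by decide)] at e1 e2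
  rw [h.mt hV] at e1
  rw [(h.res hV).1] at e2
  simp only [map_add, map_sub, map_smul, LinearMap.add_apply, LinearMap.sub_apply,
    LinearMap.smul_apply, smul_eq_mul, h.sq.one, h.bs hV, d t1 t0,
    h.bt0 hV (i := 0) (by decide), h.bt0 hV (i := 2) (by decide), h.bt0 hV (i := -2) (by decide),
    h.bt1 hV (i := 0) (by decide), h.bt1 hV (i := 2) (by decide),
    (h.bo hV (i := 1) (by decide)).1, (h.bo hV (i := -1) (by decide)).1,
    (h.bo hV (i := 3) (by decide)).1, (d _ _).trans (h.b1 1 2 rfl), (d _ _).trans (h.b2' 0 2 rfl),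
    (d _ _).trans (h.b3' hV (-1) 2 rfl), (d _ _).trans (h.b4' hV (-2) 2 rfl)] at e1 e2 e3
  linear_combination (norm := (simp only [f4, f3, cY]; ring)) 56 / 3 * (e3 - 32 * e2 + 32 * e1)

theorem Tab.p2' : (1048576 * l ^ 3 + 2408448 * l ^ 2 - 25408 * l - 195) * m + (268435456 * l ^ 5 -
    283115520 * l ^ 4 + 10911744 * l ^ 3 + 356352 * l ^ 2 - 19648 * l + 195) = 0 := by
  have d := hV.2.1
  have e1 := hV.2.2.2.1 (a 0) (a 3) (a 3)
  rw [h.sq.idem, congrArg (mul (a 0)) (h.rel hV)] at e1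
  simp only [map_add, map_sub, map_smul, h.mt hV, (h.res hV).1, h.sq.idem, h.p1 0 1 rfl,
    h.p2 0 2 rfl (by decide), (hV.1 _ _).trans (h.p1 (-1) 0 rfl),
    (hV.1 _ _).trans (h.p2 (-2) 0 rfl (by decide)), LinearMap.add_apply, LinearMap.sub_apply,
    LinearMap.smul_apply, smul_eq_mul, d s, d t0, d t1, h.bs hV, h.bo hV (i := 3) (by decide),
    h.b1 2 3 rfl, h.b2' 1 3 rfl, h.b3' hV 0 3 rfl, h.b4' hV (-1) 3 rfl, h.b5' hV (-2) 3 rfl] at e1
  linear_combination (norm := (simp only [f5, f4, f3, cY]; ring)) 784 / 45 * e1 +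
    (2944 / 15 * l + 29 / 5) * h.p1' hV

omit h in
theorem eq_of_one {u v : V} (h1 : B u u = 1) (h2 : B v v = 1) (h3 : B u v = 1) : u = v :=
  sub_eq_zero.1 (by_contra fun h => (hV.2.2.1 _ h).ne' (by simp [h1, h2, h3, hV.2.1 v u]))

omit h in
theorem Sq.six (h : Sq mul B a) : ∃ i, ∃ n : ℕ, 1 ≤ n ∧ n ≤ 6 ∧ a i = a (i + n) := by
  obtain ⟨s, t0, t1, l, m, n, h⟩ := h.tab hV
  obtain rfl := h.mn hV
  rcases solve (h.p1' hV) (h.p2' hV) with e | e | e
  · exact ⟨0, 4, by simp, by simp, eq_of_one hV (h.sq.one _) (h.sq.one _) ((h.b4' hV _ _ rfl).trans e)⟩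
  · exact ⟨0, 5, by simp, by simp, eq_of_one hV (h.sq.one _) (h.sq.one _) ((h.b5' hV _ _ rfl).trans e)⟩
  · exact ⟨-2, 6, by simp, by simp, eq_of_one hV (h.sq.one _) (h.sq.one _) ((h.b6' hV).trans e)⟩

omit h hV in
theorem pair_conj {τ g : V ≃ₗ[ℝ] V} {x : V} (h : IsMajoranaPair mul B τ x)
    (h1 : ∀ u v, g (mul u v) = mul (g u) (g v)) (h2 : ∀ u v, B (g u) (g v) = B u v) :
    IsMajoranaPair mul B (g * τ * g⁻¹) (g x) := by
  have k1 : ∀ u v, g.symm (mul u v) = mul (g.symm u) (g.symm v) := fun u v =>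
    g.injective (by simp [h1])
  have k2 : ∀ u v, B (g.symm u) (g.symm v) = B u v := fun u v => by rw [← h2]; simp
  have k3 : ∀ c, eigen mul (g x) c = (eigen mul x c).map (g : V →ₗ[ℝ] V) := fun c => by
    ext v
    obtain ⟨v, rfl⟩ := g.surjective v
    rw [mem_eigen, ← h1, ← map_smul, g.injective.eq_iff, ← mem_eigen]
    simp
  have k4 : ∀ S, eigenSum mul (g x) S = (eigenSum mul x S).map (g : V →ₗ[ℝ] V) := fun S => by
    simp only [eigenSum, Submodule.map_iSup, k3]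
  obtain ⟨a1, a2, ⟨⟨a3, a4, a5, a6⟩, a7⟩, a8, a9⟩ := h
  refine ⟨fun u v => ?_, fun u v => ?_, ⟨⟨by simpa, by rw [← h1, a4], ?_, ?_⟩, ?_⟩, ?_, ?_⟩
  · exact (congrArg (g ∘ τ) (k1 u v)).trans ((congrArg g (a1 _ _)).trans (h1 _ _))
  · exact (h2 _ _).trans ((a2 _ _).trans (k2 _ _))
  · rw [k4, a5, Submodule.map_top, LinearEquiv.range]
  · simp only [k3, k4]
    rintro c hc d hd _ ⟨u, hu, rfl⟩ _ ⟨v, hv, rfl⟩
    exact ⟨_, a6 c hc d hd u hu v hv, h1 u v⟩
  · rw [k3, a7, Submodule.map_span, Set.image_singleton]; rfl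
  · rw [k4]
    rintro _ ⟨v, hv, rfl⟩
    exact (congrArg (g ∘ τ) (g.symm_apply_apply v)).trans (congrArg g (a8 v hv))
  · rw [k3]
    rintro _ ⟨v, hv, rfl⟩
    exact (congrArg (g ∘ τ) (g.symm_apply_apply v)).trans ((congrArg g (a9 v hv)).trans
      (map_neg g v))

omit h hV in
theorem exists_sq {μ ν : V ≃ₗ[ℝ] V} {x y : V} (h0 : IsMajoranaPair mul B μ x)
    (h1 : IsMajoranaPair mul B ν y) (hx : B x x = 1) (hy : B y y = 1) :
    ∃ a : ℤ → V, Sq mul B a ∧ a 0 = x ∧ a 1 = y ∧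
      ∀ i : ℤ, IsMajoranaPair mul B ((ν * μ) ^ i * μ) (a i) := by
  have fix : ∀ {μ : V ≃ₗ[ℝ] V} {x : V}, IsMajoranaPair mul B μ x → μ x = x := fun {μ x} h =>
    h.2.2.2.1 x (Submodule.mem_iSup_of_mem 1 (Submodule.mem_iSup_of_mem (by simp)
      (mem_eigen.2 (by simp [idem h]))))
  have m2 : μ * μ = 1 := LinearEquiv.ext (invol h0)
  have n2 : ν * ν = 1 := LinearEquiv.ext (invol h1)
  obtain ⟨ρ, hρ⟩ : ∃ ρ, ρ = ν * μ := ⟨_, rfl⟩
  have c1 : ∀ k : ℤ, μ * ρ ^ k = ρ ^ (-k) * μ := fun k => by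
    rw [← mul_inv_eq_iff_eq_mul, ← conj_zpow, zpow_neg, ← inv_zpow, hρ, mul_inv_rev, mul_assoc,
      mul_inv_cancel_right, inv_eq_of_mul_eq_one_right m2, inv_eq_of_mul_eq_one_right n2]
  have c2 : ν = ρ * μ := by rw [hρ, mul_assoc, m2, mul_one]
  have c3 : ∀ k : ℤ, (∀ u v, (ρ ^ k) (mul u v) = mul ((ρ ^ k) u) ((ρ ^ k) v)) ∧
      ∀ u v, B ((ρ ^ k) u) ((ρ ^ k) v) = B u v := fun k => by
    let K : Subgroup (V ≃ₗ[ℝ] V) :=
      { carrier := {g | (∀ u v, g (mul u v) = mul (g u) (g v)) ∧ ∀ u v, B (g u) (g v) = B u v}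
        one_mem' := ⟨fun _ _ => rfl, fun _ _ => rfl⟩
        mul_mem' := fun {g k} hg hk => ⟨fun u v => (congrArg g (hk.1 u v)).trans (hg.1 _ _),
          fun u v => (hg.2 _ _).trans (hk.2 u v)⟩
        inv_mem' := fun {g} hg => ⟨fun u v => g.injective (by simp [hg.1]),
          fun u v => by rw [← hg.2]; simp⟩ }
    exact K.zpow_mem (hρ ▸ K.mul_mem ⟨h1.1, h1.2.1⟩ ⟨h0.1, h0.2.1⟩) k
  have c4 : ∀ (k l : ℤ) (v : V), (ρ ^ k * μ) ((ρ ^ l) v) = (ρ ^ (k - l)) (μ v) := fun k l v => by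
    rw [← LinearEquiv.mul_apply, mul_assoc, c1, ← mul_assoc, ← zpow_add]; rfl
  have c5 : μ y = (ρ ^ (-1 : ℤ)) y := by
    rw [zpow_neg_one, hρ, mul_inv_rev, inv_eq_of_mul_eq_one_right m2,
      inv_eq_of_mul_eq_one_right n2, LinearEquiv.mul_apply, fix h1]
  have c6 : ∀ i : ℤ, IsMajoranaPair mul B (ρ ^ i * μ) ((ρ ^ (i / 2)) (if i % 2 = 0 then x else y)) :=
    fun i => by
      split_ifs with hi
      · convert pair_conj h0 (c3 (i / 2)).1 (c3 (i / 2)).2 using 1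
        rw [← zpow_neg, mul_assoc, c1, ← mul_assoc, ← zpow_add]
        congr 2; omega
      · convert pair_conj h1 (c3 (i / 2)).1 (c3 (i / 2)).2 using 1
        rw [← zpow_neg, c2, mul_assoc, mul_assoc, c1, ← mul_assoc, ← mul_assoc, ← zpow_add_one,
          ← zpow_add]
        congr 2; omega
  refine ⟨fun i => (ρ ^ (i / 2)) (if i % 2 = 0 then x else y), fun i => ⟨_, c6 i, ?_, fun j => ?_⟩,
    by simp, by simp, hρ ▸ c6⟩
  · rw [(c3 _).2]; split_ifs <;> assumption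
  · rw [c4]
    by_cases hj : j % 2 = 0
    · simp only [hj, show (2 * i - j) % 2 = 0 by omega, if_true, fix h0]
      congr 2; omega
    · simp only [hj, show ¬ (2 * i - j) % 2 = 0 by omega, if_false, c5]
      rw [← LinearEquiv.mul_apply, ← zpow_add]
      congr 2; omega

end Cfsg.Agent.Maj
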